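import Cfsg.Agent.SectRankFour.AltEight

/-!
Every copy of `Sym 6` in `Alt 8` contains, up to conjugation, three prescribed fixed-point-free involutions
and three elements of order three; their matrices in `GL(4,2)`.
-/

set_option autoImplicit false

namespace CfsgLib.SectRankFour

open CfsgLib.GL4F2 Matrix

/-- An even permutation fixing all but two points is trivial. -/
theorem eq_one_of_fix {σ : Equiv.Perm (Fin 8)} (hσ : Equiv.Perm.sign σ = 1) {F : Set (Fin 8)} (hF : F.ncard ≤ 2)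
    (h : ∀ x, x ∉ F → σ x = x) : σ = 1 := by
  classical
  by_contra hne
  have h2 : σ.support.card ≤ 2 := by
    refine le_trans ?_ hF
    rw [← Set.ncard_coe_finset]
    refine Set.ncard_le_ncard (fun x hx => ?_) (Set.toFinite _)
    by_contra hxF
    exact (Equiv.Perm.mem_support.1 hx) (h x hxF)
  have h0 : σ.support.card ≠ 0 := fun e => hne (Equiv.Perm.card_support_eq_zero.1 e)
  have h1 := Equiv.Perm.card_support_ne_one σ
  obtain ⟨x, y, hxy, rfl⟩ := Equiv.Perm.card_support_eq_two.1 (show σ.support.card = 2 by omega)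
  rw [Equiv.Perm.sign_swap hxy] at hσ
  exact absurd hσ (by decide)

/-- A copy of `Sym 6` in `Alt 8` contains every conjugate, by a suitable element, of the even
permutations preserving a standard pair. -/
theorem exists_conj_of_six (j : Equiv.Perm (Fin 6) →* ↥(alternatingGroup (Fin 8))) (hj : Function.Injective j) :
    ∃ a : ↥(alternatingGroup (Fin 8)), ∀ g : ↥(alternatingGroup (Fin 8)),
      (∀ x, ((g : Equiv.Perm (Fin 8)) x = 6 ∨ (g : Equiv.Perm (Fin 8)) x = 7) ↔ (x = 6 ∨ x = 7)) →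
      a * g * a⁻¹ ∈ j.range := by
  classical
  let ρ : Equiv.Perm (Fin 6) →* Equiv.Perm (Fin 8) := (alternatingGroup (Fin 8)).subtype.comp j
  have hρ : Function.Injective ρ := Subtype.val_injective.comp hj
  have heven : ∀ h, Equiv.Perm.sign (ρ h) = 1 := fun h => (j h).2
  haveI : Fact (Nat.Prime 5) := ⟨by norm_num⟩
  obtain ⟨σ₀, hσ₀⟩ := exists_prime_orderOf_dvd_card' (G := Equiv.Perm (Fin 6)) 5
    (by rw [Nat.card_perm, Nat.card_fin]; decide)
  set σ := ρ σ₀ with hσ
  have hσo : orderOf σ = 5 := by rw [hσ, orderOf_injective ρ hρ, hσ₀]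
  have hcyc : σ.IsCycle := Equiv.Perm.isCycle_of_prime_order' (by rw [hσo]; norm_num) (by rw [hσo]; simp)
  obtain ⟨x, hx⟩ := hcyc.nonempty_support
  set O := MulAction.orbit ρ.range x with hO
  have hOinv : ∀ h, ∀ y, ρ h y ∈ O ↔ y ∈ O := by
    intro h y
    have hmem : (⟨ρ h, ⟨h, rfl⟩⟩ : ρ.range) • y = ρ h y := rfl
    rw [← hmem, hO, ← MulAction.orbit_eq_iff, ← MulAction.orbit_eq_iff, MulAction.orbit_smul]
  have hcR : Nat.card ρ.range = 720 := by
    rw [← Nat.card_congr (MonoidHom.ofInjective hρ).toEquiv, Nat.card_perm, Nat.card_fin]; rfl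
  have hdvd : O.ncard ∣ 720 := by
    rw [← hcR, ← Nat.card_coe_set_eq, hO, Nat.card_congr (MulAction.orbitEquivQuotientStabilizer ρ.range x)]
    exact Subgroup.index_dvd_card _
  have h5 : 5 ≤ O.ncard := by
    have hsub : (σ.support : Set (Fin 8)) ⊆ O := by
      intro y hy
      obtain ⟨i, rfl⟩ := hcyc.exists_pow_eq (Equiv.Perm.mem_support.1 hx) (Equiv.Perm.mem_support.1 hy)
      exact ⟨⟨σ ^ i, pow_mem (show σ ∈ ρ.range from ⟨σ₀, rfl⟩) i⟩, rfl⟩
    have := Set.ncard_le_ncard hsub (Set.toFinite _)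
    rwa [Set.ncard_coe_finset, ← hcyc.orderOf, hσo] at this
  have h8 : O.ncard ≤ 8 :=
    (Set.ncard_le_ncard (Set.subset_univ O) (Set.toFinite _)).trans_eq (by rw [Set.ncard_univ, Nat.card_fin])
  set r := resHom ρ O hOinv with hr
  set r' := resHom ρ Oᶜ (compl_invariant hOinv) with hr'
  have hker := ker_inf_eq_bot ρ hρ O hOinv
  have hsum : O.ncard + Oᶜ.ncard = 8 := by rw [Set.ncard_add_ncard_compl, Nat.card_fin]
  have h6 : O.ncard = 6 := by
    interval_cases hn : O.ncard
    · -- an orbit of size five would give odd permutations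
      exfalso
      have hinj : Function.Injective (r.prod r') :=
        (MonoidHom.ker_eq_bot_iff _).1 (by rw [MonoidHom.ker_prod, hker])
      have hbij : Function.Bijective (r.prod r') := (Nat.bijective_iff_injective_and_card _).2 ⟨hinj, by
        rw [Nat.card_prod, Nat.card_perm, Nat.card_perm, Nat.card_perm, Nat.card_fin, Nat.card_coe_set_eq,
          Nat.card_coe_set_eq, hn, show Oᶜ.ncard = 3 by omega]
        decide⟩
      obtain ⟨u, hu, v, hv, huv⟩ : ∃ u, u ∈ O ∧ ∃ v, v ∈ O ∧ u ≠ v := by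
        obtain ⟨u, hu, v, hv, huv⟩ := (Set.one_lt_ncard (Set.toFinite O)).1 (by omega)
        exact ⟨u, hu, v, hv, huv⟩
      obtain ⟨h, hh⟩ := hbij.2 (Equiv.swap ⟨u, hu⟩ ⟨v, hv⟩, 1)
      have he : ρ h = Equiv.swap u v := by
        ext y : 1
        by_cases hy : y ∈ O
        · have h1 : r h ⟨y, hy⟩ = Equiv.swap (⟨u, hu⟩ : O) ⟨v, hv⟩ ⟨y, hy⟩ :=
            DFunLike.congr_fun (congrArg Prod.fst hh) _
          show ((r h ⟨y, hy⟩ : O) : Fin 8) = _
          rw [h1, ← Subtype.val_injective.swap_apply]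
        · have h1 : r' h ⟨y, hy⟩ = (⟨y, hy⟩ : ↥(Oᶜ)) :=
            DFunLike.congr_fun (congrArg Prod.snd hh) _
          have h2 : ρ h y = y := congrArg Subtype.val h1
          rw [h2, Equiv.swap_apply_of_ne_of_ne (fun e : y = u => hy (e ▸ hu)) (fun e : y = v => hy (e ▸ hv))]
      have := heven h
      rw [he, Equiv.Perm.sign_swap huv] at this
      exact absurd this (by decide)
    · rfl
    · exact absurd hdvd (by decide)
    · exfalso
      have hA : ρ.range ≤ alternatingGroup (Fin 8) := by rintro _ ⟨h, rfl⟩; exact (j h).2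
      have huniv : O = Set.univ := Set.eq_of_subset_of_ncard_le (Set.subset_univ _)
        (by rw [hn, Set.ncard_univ, Nat.card_fin]) (Set.toFinite _)
      have htrans : MulAction.orbit ρ.range (0 : Fin 8) = Set.univ := by
        rw [← huniv, hO, MulAction.orbit_eq_iff, ← hO, huniv]; trivial
      have := eq_alternating_of_transitive ρ.range hA htrans (hcR ▸ by norm_num)
      rw [this, card_alt_eight] at hcR
      exact absurd hcR (by norm_num)
  obtain ⟨k, l, hkl, hF⟩ := Set.ncard_eq_two.1 (show Oᶜ.ncard = 2 by omega)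
  have hmemF : ∀ y, y ∉ O ↔ (y = k ∨ y = l) := fun y => by
    rw [← Set.mem_compl_iff, hF]; rfl
  -- the restriction to `O` is bijective
  have hrinj : Function.Injective r := (injective_iff_map_eq_one r).2 fun h hh => hρ (by
    rw [map_one]
    refine eq_one_of_fix (heven h) (F := Oᶜ) (by omega) fun y hy => ?_
    rw [Set.mem_compl_iff, not_not] at hy
    exact congrArg Subtype.val (DFunLike.congr_fun hh ⟨y, hy⟩))
  have hrbij : Function.Bijective r := (Nat.bijective_iff_injective_and_card _).2 ⟨hrinj, by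
    rw [Nat.card_perm, Nat.card_perm, Nat.card_fin, Nat.card_coe_set_eq, h6]⟩
  -- the conjugating element
  obtain ⟨π, hπ, hπs⟩ : ∃ π : Equiv.Perm (Fin 8), Equiv.Perm.sign π = 1 ∧
      ∀ y, (π y ∉ O ↔ (y = 6 ∨ y = 7)) := by
    obtain ⟨π, hπ⟩ : ∃ π : Equiv.Perm (Fin 8), π 6 = k ∧ π 7 = l := by
      refine ⟨Equiv.swap (Equiv.swap 6 k 7) l * Equiv.swap 6 k, ?_, ?_⟩
      · rw [Equiv.Perm.mul_apply, Equiv.swap_apply_left,
          Equiv.swap_apply_of_ne_of_ne (fun e => ?_) hkl]
        have h1 := congrArg (Equiv.swap 6 k) e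
        rw [Equiv.swap_apply_self, Equiv.swap_apply_right] at h1
        exact absurd h1 (by decide)
      · rw [Equiv.Perm.mul_apply, Equiv.swap_apply_left]
    have hiff : ∀ y, π y ∉ O ↔ (y = 6 ∨ y = 7) := fun y => by
      rw [hmemF, ← hπ.1, ← hπ.2, π.injective.eq_iff, π.injective.eq_iff]
    rcases Int.units_eq_one_or (Equiv.Perm.sign π) with h | h
    · exact ⟨π, h, hiff⟩
    · refine ⟨π * Equiv.swap 6 7, by rw [map_mul, h, Equiv.Perm.sign_swap (by decide)]; rfl, fun y => ?_⟩
      rw [Equiv.Perm.mul_apply, hiff]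
      constructor
      · rintro (e | e) <;> [right; left] <;> (apply (Equiv.swap 6 7).injective; rw [e]; simp)
      · rintro (rfl | rfl) <;> simp
  refine ⟨⟨π, hπ⟩, fun g hg => ?_⟩
  set t : Equiv.Perm (Fin 8) := π * g * π⁻¹ with ht
  have htF : ∀ y, t y ∉ O ↔ y ∉ O := fun y => by
    rw [ht, Equiv.Perm.mul_apply, Equiv.Perm.mul_apply, hπs, hg, ← hπs, Equiv.Perm.inv_def,
      Equiv.apply_symm_apply]
  obtain ⟨h, hh⟩ := hrbij.2 (t.subtypePerm fun y => not_iff_not.1 (htF y))
  refine ⟨h, Subtype.ext ?_⟩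
  show ρ h = t
  refine (inv_mul_eq_one.1 (eq_one_of_fix (σ := t⁻¹ * ρ h) ?_ (F := Oᶜ) (by omega) fun y hy => ?_)).symm
  · rw [map_mul, map_inv, heven, ht, map_mul, map_mul, map_inv, hπ]
    simp [show Equiv.Perm.sign (g : Equiv.Perm (Fin 8)) = 1 from g.2]
  · rw [Set.mem_compl_iff, not_not] at hy
    have h0 : r h ⟨y, hy⟩ = t.subtypePerm (fun y => not_iff_not.1 (htF y)) (⟨y, hy⟩ : O) := DFunLike.congr_fun hh _
    have h1 : ρ h y = t y := congrArg Subtype.val h0
    rw [Equiv.Perm.mul_apply, h1, Equiv.Perm.inv_def, Equiv.symm_apply_apply]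

/-- The six standard matrices. -/
def stdMat : Fin 3 → Bool → M4
  | 0, false => !![1, 0, 0, 1; 0, 1, 0, 0; 0, 0, 1, 0; 0, 0, 0, 1]
  | 1, false => !![1, 1, 1, 1; 0, 0, 1, 1; 0, 1, 0, 1; 0, 0, 0, 1]
  | 2, false => !![1, 0, 0, 0; 0, 0, 1, 0; 0, 1, 0, 0; 0, 0, 0, 1]
  | 0, true => !![1, 1, 0, 0; 0, 1, 1, 0; 0, 1, 0, 0; 0, 0, 0, 1]
  | 1, true => !![1, 0, 0, 0; 1, 0, 0, 1; 0, 1, 0, 0; 1, 0, 1, 0]
  | 2, true => !![0, 1, 1, 1; 0, 0, 1, 1; 0, 1, 0, 1; 1, 0, 0, 1]

/-- The permutations induced by the standard matrices. -/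
def stdPerm : Fin 3 → Bool → Equiv.Perm (Fin 8)
  | 0, false => Equiv.swap 0 1 * Equiv.swap 2 3 * Equiv.swap 4 5 * Equiv.swap 6 7
  | 1, false => Equiv.swap 0 1 * Equiv.swap 2 4 * Equiv.swap 3 5 * Equiv.swap 6 7
  | 2, false => Equiv.swap 0 1 * Equiv.swap 2 5 * Equiv.swap 3 4 * Equiv.swap 6 7
  | 0, true => Equiv.swap 0 2 * Equiv.swap 2 4 * (Equiv.swap 1 3 * Equiv.swap 3 5)
  | 1, true => Equiv.swap 0 2 * Equiv.swap 2 3 * (Equiv.swap 1 4 * Equiv.swap 4 5)
  | 2, true => Equiv.swap 0 2 * Equiv.swap 2 3 * (Equiv.swap 1 5 * Equiv.swap 5 4)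

theorem stdPerm_pair : ∀ i b x, (stdPerm i b x = 6 ∨ stdPerm i b x = 7) ↔ (x = 6 ∨ x = 7) := by
  decide +kernel

theorem stdMat_induces : ∀ i b a, stdMat i b * P a * (stdMat i b)ᵀ = P (stdPerm i b a) + P (stdPerm i b 0) := by
  decide +kernel

theorem stdMat_det : ∀ i b, (stdMat i b).det ≠ 0 := by decide +kernel

/-- Membership in the fixed subgroup of index four. -/
def InW (v : Fin 4 → ZMod 2) : Prop := v 3 = 0 ∧ v 1 = v 2

instance : DecidablePred InW := fun v => inferInstanceAs (Decidable (v 3 = 0 ∧ v 1 = v 2))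

theorem std_involution : ∀ i, stdMat i false * stdMat i false = 1 := by decide +kernel
theorem std_commute : ∀ i k, stdMat i false * stdMat k false = stdMat k false * stdMat i false := by decide +kernel
theorem std_order_three : ∀ i, stdMat i true * (stdMat i true * stdMat i true) = 1 ∧
    stdMat i true * stdMat i false = stdMat i false * stdMat i true := by decide +kernel

theorem std_commutator_mem : ∀ i v, InW ((stdMat i false).mulVec v + v) := by decide +kernel
theorem std_fixed_pair : ∀ i k v, i ≠ k → (stdMat i false * stdMat k false).mulVec v = v → InW v := by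
  decide +kernel
theorem std_fixed_three : ∀ i v, (stdMat i false).mulVec v = v → (stdMat i true).mulVec v = v → InW v := by
  decide +kernel

/-- The group elements. -/
noncomputable def stdGL (i : Fin 3) (b : Bool) : GL (Fin 4) (ZMod 2) :=
  Matrix.GeneralLinearGroup.mkOfDetNeZero (stdMat i b) (stdMat_det i b)

theorem coe_stdGL (i : Fin 3) (b : Bool) : ((stdGL i b : GL (Fin 4) (ZMod 2)) : M4) = stdMat i b := rfl

theorem equivAlt8_stdGL (i : Fin 3) (b : Bool) :
    ((equivAlt8 (stdGL i b) : ↥(alternatingGroup (Fin 8))) : Equiv.Perm (Fin 8)) = stdPerm i b :=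
  (induces_starPerm (stdGL i b)).unique (stdMat_induces i b)

/-- The standard subgroup sequence is independent. -/
theorem stdPerm_independent : ∀ b₁ b₂ b₃ : Bool,
    (if b₁ then stdPerm 0 false else 1) * (if b₂ then stdPerm 1 false else 1) *
      (if b₃ then stdPerm 2 false else 1) = 1 → b₁ = false ∧ b₂ = false ∧ b₃ = false := by
  decide +kernel

/-- A copy of `Sym 6` in `GL(4,2)` contains conjugates of the standard elements. -/
theorem exists_conj_std (j : Equiv.Perm (Fin 6) →* GL (Fin 4) (ZMod 2)) (hj : Function.Injective j) :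
    ∃ c : GL (Fin 4) (ZMod 2), ∀ i b, c * stdGL i b * c⁻¹ ∈ j.range := by
  obtain ⟨a, ha⟩ := exists_conj_of_six (equivAlt8.toMonoidHom.comp j) (equivAlt8.injective.comp hj)
  refine ⟨equivAlt8.symm a, fun i b => ?_⟩
  obtain ⟨h, hh⟩ := ha (equivAlt8 (stdGL i b)) (by rw [equivAlt8_stdGL]; exact stdPerm_pair i b)
  refine ⟨h, equivAlt8.injective ?_⟩
  rw [map_mul, map_mul, map_inv, MulEquiv.apply_symm_apply]
  exact hh

end CfsgLib.SectRankFour
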