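import Cfsg.Agent.GL4F2.Subgroups
import Cfsg.Agent.Constrained.Basic

/-!
Insoluble subgroups of `Alt 8` with trivial `2`-core, and the copies of `Sym 6` in `Alt 8`.
-/

set_option autoImplicit false

namespace CfsgLib.SectRankFour

open CfsgLib.GL4F2

/-- Restriction to an invariant set. -/
def resHom {H : Type*} [Group H] (ρ : H →* Equiv.Perm (Fin 8)) (S : Set (Fin 8))
    (hS : ∀ h, ∀ x, ρ h x ∈ S ↔ x ∈ S) : H →* Equiv.Perm S where
  toFun h := (ρ h).subtypePerm (hS h)
  map_one' := by ext x; simp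
  map_mul' a b := Equiv.ext fun x => Subtype.ext (DFunLike.congr_fun (map_mul ρ a b) x.1)

theorem resHom_apply {H : Type*} [Group H] (ρ : H →* Equiv.Perm (Fin 8)) (S : Set (Fin 8))
    (hS : ∀ h, ∀ x, ρ h x ∈ S ↔ x ∈ S) (h : H) (x : S) : (resHom ρ S hS h x : Fin 8) = ρ h x := rfl

theorem compl_invariant {H : Type*} [Group H] {ρ : H →* Equiv.Perm (Fin 8)} {S : Set (Fin 8)}
    (hS : ∀ h, ∀ x, ρ h x ∈ S ↔ x ∈ S) : ∀ h, ∀ x, ρ h x ∈ Sᶜ ↔ x ∈ Sᶜ :=
  fun h x => not_congr (hS h x)

theorem ker_inf_eq_bot {H : Type*} [Group H] (ρ : H →* Equiv.Perm (Fin 8)) (hρ : Function.Injective ρ)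
    (S : Set (Fin 8)) (hS : ∀ h, ∀ x, ρ h x ∈ S ↔ x ∈ S) :
    (resHom ρ S hS).ker ⊓ (resHom ρ Sᶜ (compl_invariant hS)).ker = ⊥ := by
  refine (Subgroup.eq_bot_iff_forall _).2 fun h hh => hρ ?_
  rw [map_one]
  ext x : 1
  by_cases hx : x ∈ S
  · exact congrArg Subtype.val (DFunLike.congr_fun (MonoidHom.mem_ker.1 hh.1) ⟨x, hx⟩)
  · exact congrArg Subtype.val (DFunLike.congr_fun (MonoidHom.mem_ker.1 hh.2) ⟨x, hx⟩)

/-- A solvable normal subgroup of an insoluble subgroup of `Sym 5` or `Sym 6` is trivial. -/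
theorem normal_solvable_eq_bot {H : Type*} [Group H] [Finite H] (hns : ¬ Group.IsSolvable H)
    (hH : Nonempty (H ≃* ↥(alternatingGroup (Fin 5))) ∨ Nonempty (H ≃* ↥(alternatingGroup (Fin 6))) ∨
      Nonempty (H ≃* Equiv.Perm (Fin 5)) ∨ Nonempty (H ≃* Equiv.Perm (Fin 6))) :
    HasNoSolvableNormal H := by
  have hA : ∀ n : ℕ, 5 ≤ n → HasNoSolvableNormal ↥(alternatingGroup (Fin n)) := by
    intro n hn N hN hs
    haveI := alternatingGroup.isSimpleGroup (α := Fin n) (by rw [Nat.card_fin]; omega)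
    rcases hN.eq_bot_or_eq_top with h | h
    · exact h
    · exfalso
      haveI := hs
      have : Group.IsSolvable ↥(alternatingGroup (Fin n)) :=
        Group.isSolvable_of_isSolvable_injective (f := (MonoidHom.id _).codRestrict N fun x => h ▸ Subgroup.mem_top x)
          fun a b e => congrArg Subtype.val e
      haveI : Group.IsSolvable (Equiv.Perm (Fin n)) := by
        haveI : Nontrivial (Fin n) := Fin.nontrivial_iff_two_le.2 (by omega)
        exact CfsgLib.SmallPerm.isSolvable_of_index_two (alternatingGroup (Fin n))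
          (alternatingGroup.index_eq_two (α := Fin n)) ‹_›
      exact Equiv.Perm.not_solvable (Fin n) (by rw [Cardinal.mk_fin]; exact_mod_cast hn) this
  have hS : ∀ n : ℕ, 5 ≤ n → HasNoSolvableNormal (Equiv.Perm (Fin n)) := by
    intro n hn N hN hs
    haveI := hs
    refine CfsgLib.SmallPerm.perm_normal_eq_bot (by omega) N ?_
    have h1 := hA n hn (N.subgroupOf (alternatingGroup (Fin n))) inferInstance
      (Group.isSolvable_of_isSolvable_injective
        (f := ((alternatingGroup (Fin n)).subtype.comp (N.subgroupOf (alternatingGroup (Fin n))).subtype).codRestrict N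
          fun x => Subgroup.mem_subgroupOf.1 x.2)
        fun a b e => Subtype.ext (Subtype.ext (congrArg Subtype.val e :)))
    rw [Subgroup.subgroupOf_eq_bot] at h1
    exact h1.eq_bot
  rcases hH with ⟨⟨e⟩⟩ | ⟨⟨e⟩⟩ | ⟨⟨e⟩⟩ | ⟨⟨e⟩⟩
  · exact (hA 5 le_rfl).of_equiv e.symm
  · exact (hA 6 (by norm_num)).of_equiv e.symm
  · exact (hS 5 le_rfl).of_equiv e.symm
  · exact (hS 6 (by norm_num)).of_equiv e.symm

theorem isSolvable_of_ker_inf {H K L : Type*} [Group H] [Group K] [Group L] (f : H →* K) (g : H →* L)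
    (h : f.ker ⊓ g.ker = ⊥) (hf : Group.IsSolvable f.range) (hg : Group.IsSolvable g.range) :
    Group.IsSolvable H := by
  haveI := hf
  haveI := hg
  exact Group.isSolvable_of_isSolvable_injective (f := f.rangeRestrict.prod g.rangeRestrict)
    ((MonoidHom.ker_eq_bot_iff _).1 (by rw [MonoidHom.ker_prod, MonoidHom.ker_rangeRestrict, MonoidHom.ker_rangeRestrict, h]))

theorem solvable_of_comm {H : Type*} [Group H] (M : Subgroup H) (hcomm : ∀ a ∈ M, ∀ b ∈ M, a * b = b * a) :
    Group.IsSolvable M :=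
  Group.isSolvable_of_comm fun a b => Subtype.ext (hcomm a a.2 b b.2)

theorem dvd_card_of_ne {H : Type*} [Group H] [Finite H] (M : Subgroup H) (hM : M ≠ ⊥) {p : ℕ} [Fact p.Prime]
    (hMp : IsPGroup p M) : p ∣ Nat.card M := by
  obtain ⟨n, hc⟩ := IsPGroup.iff_card.1 hMp
  rcases Nat.eq_zero_or_pos n with rfl | hn
  · exact absurd (Subgroup.card_eq_one.1 (hc.trans (pow_zero p))) hM
  · rw [hc]; exact dvd_pow_self p (by omega)

theorem isSolvable_of_pGroup {K : Type*} [Group K] [Finite K] (hp : IsPGroup 3 K) : Group.IsSolvable K := by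
  haveI : Fact (Nat.Prime 3) := ⟨Nat.prime_three⟩
  haveI := hp.isNilpotent
  infer_instance

theorem sixty_dvd_of_insoluble (T : Subgroup (Equiv.Perm (Fin 5))) (hT : ¬ Group.IsSolvable T) :
    60 ∣ Nat.card T := by
  obtain ⟨emb⟩ : Nonempty (Fin 5 ↪ Fin 6) := ⟨Fin.castSuccEmb⟩
  let g : T →* Equiv.Perm (Fin 6) := (Equiv.Perm.viaEmbeddingHom emb).comp T.subtype
  have hg : Function.Injective g := (Equiv.Perm.viaEmbeddingHom_injective emb).comp Subtype.val_injective
  let e := MonoidHom.ofInjective hg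
  have hgs : ¬ Group.IsSolvable g.range := fun hs => hT (by
    haveI := hs
    exact Group.isSolvable_of_isSolvable_injective (f := e.toMonoidHom) e.injective)
  rw [Nat.card_congr e.toEquiv]
  rcases CfsgLib.SmallPerm.degree_six_insoluble g.range hgs with ⟨⟨e'⟩⟩ | ⟨⟨e'⟩⟩ | ⟨⟨e'⟩⟩ | ⟨⟨e'⟩⟩ <;>
    rw [Nat.card_congr e'.toEquiv] <;>
    first
      | (rw [nat_card_alternatingGroup, Nat.card_fin]; decide)
      | (rw [Nat.card_perm, Nat.card_fin]; decide)

theorem mem_zpowers_of_commute {σ τ : Equiv.Perm (Fin 8)} (hcyc : σ.IsCycle) (hsupp : σ.support.card = 7)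
    (hc : Commute τ σ) : τ ∈ Subgroup.zpowers σ := by
  obtain ⟨k, hk⟩ : ∃ k, k ∉ σ.support := by
    by_contra hno
    push Not at hno
    rw [Finset.eq_univ_of_forall hno] at hsupp
    simp at hsupp
  have hk' : σ k = k := Equiv.Perm.notMem_support.1 hk
  have hτk : τ k = k := by
    by_contra hne
    have h1 : σ (τ k) = τ k := by
      rw [← Equiv.Perm.mul_apply, ← hc.eq, Equiv.Perm.mul_apply, hk']
    have h2 : σ.support ⊆ (Finset.univ.erase k).erase (τ k) := by
      intro x hx
      simp only [Finset.mem_erase, Finset.mem_univ, and_true]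
      exact ⟨fun e => Equiv.Perm.mem_support.1 hx (e ▸ h1), fun e => Equiv.Perm.mem_support.1 hx (e ▸ hk')⟩
    have := Finset.card_le_card h2
    rw [hsupp, Finset.card_erase_of_mem (by simp [hne]), Finset.card_erase_of_mem (Finset.mem_univ k)] at this
    simp at this
  obtain ⟨x, hx⟩ := hcyc.nonempty_support
  have hτx : τ x ∈ σ.support := by
    rw [Equiv.Perm.mem_support] at hx ⊢
    intro e
    refine hx (τ.injective ?_)
    rw [← Equiv.Perm.mul_apply, hc.eq, Equiv.Perm.mul_apply, e]
  obtain ⟨i, hi⟩ := hcyc.exists_pow_eq (Equiv.Perm.mem_support.1 hx) (Equiv.Perm.mem_support.1 hτx)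
  refine ⟨i, ?_⟩
  show σ ^ (i : ℤ) = τ
  rw [zpow_natCast]
  ext y : 1
  by_cases hy : y = k
  · subst hy
    rw [hτk, Equiv.Perm.pow_apply_eq_self_of_apply_eq_self hk']
  · have hys : y ∈ σ.support := by
      by_contra hny
      have h2 : σ.support ⊆ (Finset.univ.erase k).erase y := by
        intro z hz
        simp only [Finset.mem_erase, Finset.mem_univ, and_true]
        exact ⟨fun e => hny (e ▸ hz), fun e => hk (e ▸ hz)⟩
      have := Finset.card_le_card h2
      rw [hsupp, Finset.card_erase_of_mem (by simp [hy]), Finset.card_erase_of_mem (Finset.mem_univ k)] at this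
      simp at this
    obtain ⟨j, hj⟩ := hcyc.exists_pow_eq (Equiv.Perm.mem_support.1 hx) (Equiv.Perm.mem_support.1 hys)
    rw [← hj, ← Equiv.Perm.mul_apply, ← pow_add, add_comm, pow_add, Equiv.Perm.mul_apply, hi,
      ← Equiv.Perm.mul_apply, ← Equiv.Perm.mul_apply, (hc.pow_right j).eq]


theorem solvable_range_of_large {H : Type*} [Group H] [Finite H] (ρ : H →* Equiv.Perm (Fin 8))
    (hρ : Function.Injective ρ) (heven : ∀ h, Equiv.Perm.sign (ρ h) = 1) (M : Subgroup H) [M.Normal]
    (hodd : ¬ 2 ∣ Nat.card M) {p : ℕ} [hp : Fact p.Prime] (hMp : IsPGroup p M) (hpM : p ∣ Nat.card M)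
    (hcomm : ∀ a ∈ M, ∀ b ∈ M, a * b = b * a) (S : Set (Fin 8))
    (hSdef : ∀ x, x ∈ S ↔ ∃ a ∈ M, ρ a x ≠ x) (hS : ∀ h, ∀ x, ρ h x ∈ S ↔ x ∈ S) (hlarge : 7 ≤ S.ncard) :
    Group.IsSolvable (resHom ρ S hS).range := by
  classical
  -- orbits of `M` have odd size dividing the order of `M`
  haveI : Fact (Nat.Prime 7) := ⟨by norm_num⟩
  by_cases h7 : 7 ∣ Nat.card M
  · obtain ⟨a, ha⟩ := exists_prime_orderOf_dvd_card' (G := M) 7 h7
    set σ := ρ a with hσ
    have hσo : orderOf σ = 7 := by rw [hσ, orderOf_injective ρ hρ, Subgroup.orderOf_coe, ha]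
    have hcyc : σ.IsCycle := Equiv.Perm.isCycle_of_prime_order' (by rw [hσo]; norm_num) (by rw [hσo]; simp)
    have hsupp : σ.support.card = 7 := by rw [← hcyc.orderOf, hσo]
    -- `M` is generated by the cycle
    have hMle : ∀ b ∈ M, ρ b ∈ Subgroup.zpowers σ := fun b hb =>
      mem_zpowers_of_commute hcyc hsupp (show Commute (ρ b) σ by
        show ρ b * ρ a = ρ a * ρ b
        rw [← map_mul, ← map_mul, hcomm b hb a a.2])
    -- conjugation on `M`
    have hMeq : M = Subgroup.zpowers (a : H) := by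
      refine le_antisymm (fun b hb => ?_) (Subgroup.zpowers_le.2 a.2)
      obtain ⟨k, hk⟩ := hMle b hb
      exact ⟨k, hρ (by rw [map_zpow]; exact hk)⟩
    haveI : IsCyclic M := hMeq ▸ inferInstance
    have hC : ∀ h ∈ (MulAut.conjNormal : H →* MulAut M).ker, ρ h ∈ Subgroup.zpowers σ := fun h hh =>
      mem_zpowers_of_commute hcyc hsupp (show Commute (ρ h) σ by
        have h1 : ((MulAut.conjNormal h a : M) : H) = a := by rw [MonoidHom.mem_ker.1 hh]; rfl
        rw [MulAut.conjNormal_apply] at h1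
        show ρ h * ρ a = ρ a * ρ h
        rw [← map_mul, ← map_mul, mul_inv_eq_iff_eq_mul.1 h1])
    haveI : Group.IsSolvable H := by
      haveI : IsMulCommutative (MulAut M) := ⟨⟨fun x y => by
        apply (IsCyclic.mulAutMulEquiv M).injective
        rw [map_mul, map_mul, mul_comm]⟩⟩
      haveI : Group.IsSolvable (MulAut M) := Group.isSolvable_of_comm fun x y => IsMulCommutative.is_comm.comm x y
      haveI : Group.IsSolvable (MulAut.conjNormal : H →* MulAut M).ker := by
        refine Group.isSolvable_of_isSolvable_injective (G' := Subgroup.zpowers σ)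
          (f := (ρ.comp (MulAut.conjNormal : H →* MulAut M).ker.subtype).codRestrict _ fun x => hC x x.2) ?_
        intro x y e
        exact Subtype.ext (hρ (congrArg Subtype.val e :))
      exact Group.isSolvable_of_ker_le_range (MulAut.conjNormal : H →* MulAut M).ker.subtype
        (MulAut.conjNormal : H →* MulAut M) (by rw [Subgroup.range_subtype])
    exact Group.isSolvable_of_surjective (f := (resHom ρ S hS).rangeRestrict)
      (resHom ρ S hS).rangeRestrict_surjective
  · -- impossible: the moved set has size divisible by the exponent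
    exfalso
    let R := M.map ρ
    have hR : IsPGroup p R := hMp.map _
    have hfix : MulAction.fixedPoints R (Fin 8) = Sᶜ := by
      ext x
      rw [Set.mem_compl_iff, hSdef, MulAction.mem_fixedPoints]
      push Not
      exact ⟨fun h a ha => h ⟨ρ a, Subgroup.mem_map_of_mem _ ha⟩, by rintro h ⟨_, a, ha, rfl⟩; exact h a ha⟩
    have hmod := hR.card_modEq_card_fixedPoints (α := Fin 8)
    rw [hfix, Nat.card_fin, Nat.card_coe_set_eq] at hmod
    have hsum : S.ncard + Sᶜ.ncard = 8 := by rw [Set.ncard_add_ncard_compl, Nat.card_fin]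
    have hdvd : p ∣ S.ncard := by
      rw [show S.ncard = 8 - Sᶜ.ncard by omega]
      exact (Nat.modEq_iff_dvd' (by omega)).1 hmod.symm
    have hp2 : p ≠ 2 := fun e => hodd (e ▸ hpM)
    have h78 : S.ncard = 7 ∨ S.ncard = 8 := by omega
    rcases h78 with e | e
    · rw [e] at hdvd
      exact h7 (((Nat.prime_dvd_prime_iff_eq hp.out (by norm_num)).1 hdvd) ▸ hpM)
    · rw [e, show 8 = 2 ^ 3 by norm_num] at hdvd
      exact hp2 ((Nat.prime_dvd_prime_iff_eq hp.out Nat.prime_two).1 (hp.out.dvd_of_dvd_pow hdvd))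

/-- An insoluble subgroup of `Alt 8` with trivial `2`-core and nontrivial odd normal subgroup. -/
theorem odd_normal_case {H : Type*} [Group H] [Finite H] (hns : ¬ Group.IsSolvable H)
    (ρ : H →* Equiv.Perm (Fin 8)) (hρ : Function.Injective ρ) (heven : ∀ h, Equiv.Perm.sign (ρ h) = 1)
    (M : Subgroup H) [M.Normal] (hM : M ≠ ⊥) (hodd : ¬ 2 ∣ Nat.card M) {p : ℕ} [hp : Fact p.Prime]
    (hMp : IsPGroup p M) (hcomm : ∀ a ∈ M, ∀ b ∈ M, a * b = b * a) :
    Nat.card ↥(Cfsg.pCore 3 H) = 3 ∧
      (Nonempty (H ⧸ Cfsg.pCore 3 H ≃* ↥(alternatingGroup (Fin 5))) ∨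
        Nonempty (H ⧸ Cfsg.pCore 3 H ≃* Equiv.Perm (Fin 5))) := by
  classical
  haveI : Group.IsSolvable M :=
    solvable_of_comm M hcomm
  let S : Set (Fin 8) := {x | ∃ a ∈ M, ρ a x ≠ x}
  have hS : ∀ h, ∀ x, ρ h x ∈ S ↔ x ∈ S := by
    have key : ∀ h x, x ∈ S → ρ h x ∈ S := by
      rintro h x ⟨a, ha, hax⟩
      refine ⟨h * a * h⁻¹, Subgroup.Normal.conj_mem inferInstance a ha h, ?_⟩
      rw [map_mul, map_mul, map_inv, Equiv.Perm.mul_apply, Equiv.Perm.mul_apply, Equiv.Perm.inv_def,
        Equiv.symm_apply_apply]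
      exact fun e => hax ((ρ h).injective e)
    refine fun h x => ⟨fun hx => ?_, key h x⟩
    have := key h⁻¹ _ hx
    rwa [map_inv, Equiv.Perm.inv_def, Equiv.symm_apply_apply] at this
  set r := resHom ρ S hS with hr
  set r' := resHom ρ Sᶜ (compl_invariant hS) with hr'
  have hker := ker_inf_eq_bot ρ hρ S hS
  have hMr' : M ≤ r'.ker := fun a ha => Equiv.ext fun x => Subtype.ext (by
    show ρ a x = x
    by_contra hne
    exact x.2 ⟨a, ha, hne⟩)
  have hMr : ∀ a ∈ M, a ≠ 1 → r a ≠ 1 := fun a ha hne e => hne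
    ((Subgroup.eq_bot_iff_forall _).1 hker a ⟨e, hMr' ha⟩)
  have hsum : S.ncard + Sᶜ.ncard = 8 := by rw [Set.ncard_add_ncard_compl, Nat.card_fin]
  have hcS : Fintype.card S = S.ncard := (Nat.card_coe_set_eq S).symm.trans Nat.card_eq_fintype_card |>.symm
  have hcS' : Fintype.card ↥(Sᶜ) = (Sᶜ).ncard := (Nat.card_coe_set_eq _).symm.trans Nat.card_eq_fintype_card |>.symm
  -- sizes
  have hS3 : 3 ≤ S.ncard := by
    obtain ⟨a, ha, hane⟩ := M.bot_or_exists_ne_one.resolve_left hM
    by_contra hlt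
    push Not at hlt
    have h1 : orderOf (r a) ∣ 2 := by
      have h2 := orderOf_dvd_natCard (r a)
      rw [Nat.card_perm, Nat.card_coe_set_eq] at h2
      refine h2.trans ?_
      interval_cases S.ncard <;> simp [Nat.factorial]
    have h2 : orderOf (r a) ∣ Nat.card M :=
      ((orderOf_map_dvd r a).trans (Subgroup.orderOf_mk a ha ▸ dvd_rfl)).trans (orderOf_dvd_natCard (⟨a, ha⟩ : M))
    rcases (Nat.dvd_prime Nat.prime_two).1 h1 with h3 | h3
    · exact hMr a ha hane (orderOf_eq_one_iff.1 h3)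
    · exact hodd (h3 ▸ h2)
  -- the restriction to `S` has solvable image unless `S` is small
  by_cases hS4 : S.ncard = 3
  swap
  · exfalso
    have hF : Fintype.card ↥(Sᶜ) ≤ 4 := by omega
    have hFs : Group.IsSolvable (Equiv.Perm ↥(Sᶜ)) := by
      refine CfsgLib.SmallPerm.isSolvable_of_two_primes _ 2 3 3 1 Nat.prime_two (by norm_num) ?_
      rw [Nat.card_perm, Nat.card_eq_fintype_card]
      interval_cases Fintype.card ↥(Sᶜ) <;> simp [Nat.factorial]
    have hSs : Group.IsSolvable r.range := by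
      by_contra hrs
      by_cases h6 : S.ncard ≤ 6
      · obtain ⟨emb⟩ : Nonempty (S ↪ Fin 6) := Function.Embedding.nonempty_of_card_le (by
          rw [Fintype.card_fin]; omega)
        let f : r.range →* Equiv.Perm (Fin 6) := (Equiv.Perm.viaEmbeddingHom emb).comp r.range.subtype
        have hf : Function.Injective f := (Equiv.Perm.viaEmbeddingHom_injective emb).comp Subtype.val_injective
        let e := MonoidHom.ofInjective hf
        have hfs : ¬ Group.IsSolvable f.range := fun hs => hrs (by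
          haveI := hs
          exact Group.isSolvable_of_isSolvable_injective (f := e.toMonoidHom) e.injective)
        have hno : HasNoSolvableNormal f.range :=
          normal_solvable_eq_bot hfs (CfsgLib.SmallPerm.degree_six_insoluble f.range hfs)
        have hno' : HasNoSolvableNormal r.range := hno.of_equiv e.symm
        haveI : (M.map r.rangeRestrict).Normal := Subgroup.Normal.map inferInstance _ r.rangeRestrict_surjective
        have h0 := hno' (M.map r.rangeRestrict) inferInstance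
          (Group.isSolvable_of_surjective (f := r.rangeRestrict.subgroupMap M) (r.rangeRestrict.subgroupMap_surjective M))
        obtain ⟨a, ha, hane⟩ := M.bot_or_exists_ne_one.resolve_left hM
        have h1 : r.rangeRestrict a ∈ M.map r.rangeRestrict := Subgroup.mem_map_of_mem _ ha
        rw [h0, Subgroup.mem_bot] at h1
        exact hMr a ha hane (congrArg Subtype.val h1)
      · exact hrs (solvable_range_of_large (hp := hp) ρ hρ heven M hodd hMp (dvd_card_of_ne M hM hMp) hcomm S (fun x => Iff.rfl) hS (by omega))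
    exact hns (isSolvable_of_ker_inf r r' hker hSs inferInstance)
  -- now `S` has three points
  have hSs : Group.IsSolvable r.range := by
    haveI := CfsgLib.GL4F2.isSolvable_perm_of_card_le_three S (by omega)
    infer_instance
  have hker' : r'.ker ≤ M ⊔ ⊥ ∧ Nat.card r'.ker = 3 := by
    have h3 : ∀ h ∈ r'.ker, Equiv.Perm.sign (r h) = 1 := by
      intro h hh
      have e : ρ h = Equiv.Perm.ofSubtype (r h) := by
        ext x : 1
        by_cases hx : x ∈ S
        · exact (Equiv.Perm.ofSubtype_apply_coe (r h) ⟨x, hx⟩).symm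
        · rw [Equiv.Perm.ofSubtype_apply_of_not_mem _ hx]
          exact congrArg Subtype.val (DFunLike.congr_fun (MonoidHom.mem_ker.1 hh) ⟨x, hx⟩)
      rw [← heven h, e, Equiv.Perm.sign_ofSubtype]
    let g : r'.ker →* ↥(alternatingGroup S) :=
      (r.comp r'.ker.subtype).codRestrict _ fun x => Equiv.Perm.mem_alternatingGroup.2 (h3 x x.2)
    have hg : Function.Injective g := (injective_iff_map_eq_one g).2 fun x hx => Subtype.ext
      ((Subgroup.eq_bot_iff_forall _).1 hker x ⟨congrArg Subtype.val hx, x.2⟩)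
    have hA3 : Nat.card ↥(alternatingGroup S) = 3 := by
      haveI : Nontrivial S := Fintype.one_lt_card_iff_nontrivial.1 (by omega)
      rw [nat_card_alternatingGroup, Nat.card_coe_set_eq, hS4]
      rfl
    have hle : Nat.card r'.ker ∣ 3 := hA3 ▸ Subgroup.card_dvd_of_injective g hg
    have hMc : 1 < Nat.card M := Finite.one_lt_card_iff_nontrivial.2 ((Subgroup.nontrivial_iff_ne_bot M).2 hM)
    have hMle : Nat.card M ∣ Nat.card r'.ker := Subgroup.card_dvd_of_le hMr'
    have h33 : Nat.card r'.ker = 3 := ((Nat.dvd_prime Nat.prime_three).1 hle).resolve_left (fun e => by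
      have := Nat.le_of_dvd one_pos (e ▸ hMle); omega)
    refine ⟨le_sup_of_le_left ?_, h33⟩
    have hM3 : Nat.card M = 3 := ((Nat.dvd_prime Nat.prime_three).1 (h33 ▸ hMle)).resolve_left (by omega)
    exact (Subgroup.eq_of_le_of_card_ge hMr' (by omega)).ge
  have hns' : ¬ Group.IsSolvable r'.range := fun hs => hns (isSolvable_of_ker_inf r r' hker hSs hs)
  obtain ⟨emb⟩ : Nonempty (↥(Sᶜ) ↪ Fin 5) := Function.Embedding.nonempty_of_card_le (by
    rw [Fintype.card_fin]; omega)
  let f : H →* Equiv.Perm (Fin 5) := (Equiv.Perm.viaEmbeddingHom emb).comp r'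
  have hfk : f.ker = r'.ker := by
    rw [MonoidHom.ker_comp_of_injective _ _ (Equiv.Perm.viaEmbeddingHom_injective emb)]
  have hfs : ¬ Group.IsSolvable f.range := by
    intro hs
    haveI := hs
    apply hns'
    refine Group.isSolvable_of_isSolvable_injective
      (f := ((Equiv.Perm.viaEmbeddingHom emb).comp r'.range.subtype).codRestrict f.range ?_) ?_
    · rintro ⟨_, h, rfl⟩; exact ⟨h, rfl⟩
    · intro a b e
      exact Subtype.ext (Equiv.Perm.viaEmbeddingHom_injective emb (congrArg Subtype.val e :))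
  have hbig : 60 ∣ Nat.card f.range ∧ Nat.card f.range ∣ 120 := by
    refine ⟨sixty_dvd_of_insoluble _ hfs, ?_⟩
    have := Subgroup.card_subgroup_dvd_card f.range
    rw [Nat.card_perm, Nat.card_fin] at this
    exact this
  have himg : Nonempty (f.range ≃* ↥(alternatingGroup (Fin 5))) ∨ Nonempty (f.range ≃* Equiv.Perm (Fin 5)) := by
    obtain ⟨k, hk⟩ := hbig.1
    have hk2 : k ∣ 2 := Nat.dvd_of_mul_dvd_mul_left (by norm_num : 0 < 60) (hk ▸ hbig.2)
    have hcA : Nat.card ↥(alternatingGroup (Fin 5)) = 60 := by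
      rw [nat_card_alternatingGroup]; simp [Nat.factorial]
    rcases (Nat.dvd_prime Nat.prime_two).1 hk2 with h | h <;> subst h
    · refine Or.inl ⟨MulEquiv.subgroupCongr ?_⟩
      refine Equiv.Perm.eq_alternatingGroup_of_index_eq_two ?_
      have := f.range.card_mul_index
      rw [hk, Nat.card_perm, Nat.card_fin] at this
      simp [Nat.factorial] at this
      omega
    · refine Or.inr ⟨(MulEquiv.subgroupCongr (Subgroup.eq_top_of_card_eq _ ?_)).trans Subgroup.topEquiv⟩
      rw [hk, Nat.card_perm, Nat.card_fin]; rfl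
  have h3core : Cfsg.pCore 3 H = f.ker := by
    haveI : Fact (Nat.Prime 3) := ⟨Nat.prime_three⟩
    refine le_antisymm ?_ (CfsgLib.Constrained.le_pCore inferInstance
      (IsPGroup.of_card (n := 1) (by rw [hfk, hker'.2, pow_one])))
    have hno : HasNoSolvableNormal f.range :=
      normal_solvable_eq_bot hfs (himg.elim (fun e => Or.inl e) (fun e => Or.inr (Or.inr (Or.inl e))))
    have hp : IsPGroup 3 ↥((Cfsg.pCore 3 H).map f.rangeRestrict) := CfsgLib.Constrained.isPGroup_pCore.map _
    haveI : ((Cfsg.pCore 3 H).map f.rangeRestrict).Normal :=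
      Subgroup.Normal.map inferInstance _ f.rangeRestrict_surjective
    have := hno _ inferInstance (isSolvable_of_pGroup hp)
    rw [Subgroup.map_eq_bot_iff, MonoidHom.ker_rangeRestrict] at this
    exact this
  refine ⟨by rw [h3core, hfk]; exact hker'.2, ?_⟩
  let e := (QuotientGroup.quotientMulEquivOfEq h3core).trans (QuotientGroup.quotientKerEquivRange f)
  exact himg.imp (Nonempty.map e.trans) (Nonempty.map e.trans)

end CfsgLib.SectRankFour
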